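import Cfsg.Agent.A22.Sig
import Cfsg.Agent.FiF6.Fit22

/-!
The diagram automorphism does not act on the section `K/E` as an element of `K` (owner: helper50).
-/

set_option autoImplicit false
set_option linter.unusedSectionVars false

namespace Cfsg.Agent.A22

open Matrix Module Cfsg.Agent.Uni Cfsg.Agent.ThreeTransp Cfsg.Agent.Fi22 Cfsg.Agent.FiF4 Cfsg.Agent.FiF6

section lin

variable {F : Type} [Field F] [Fintype F]

theorem scal_eq (hF : Fintype.card F = 2 ^ 2) (m : SU 4 F 2) {u w : Fin 4 → F} {c c' : F} (hc' : c' ≠ 0)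
    (hu : act m u = c • u) (hw : act m w = c' • w) (h : hermForm 4 F 2 u w ≠ 0) : c = c' := by
  have h1 := act_form m u w
  rw [hu, hw, hermForm_smul_left, hermForm_smul_right] at h1
  have h2 : c * c' ^ 2 = 1 := mul_right_cancel₀ h (by rw [one_mul]; linear_combination h1)
  have h3 : c' ^ 3 = 1 := pow_three_eq_one hF hc'
  calc c = c * c' ^ 3 := by rw [h3, mul_one]
    _ = (c * c' ^ 2) * c' := by ring
    _ = c' := by rw [h2, one_mul]

theorem scalar_of (hF : Fintype.card F = 2 ^ 2) (m : SU 4 F 2) {u : Fin 4 → (Fin 4 → F)} {c : F}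
    (hu : ∀ i, act m (u i) = c • u i) (h0 : ∀ i, hermForm 4 F 2 (u i) (u i) = 0)
    (h01 : hermForm 4 F 2 (u 0) (u 1) ≠ 0) (h23 : hermForm 4 F 2 (u 2) (u 3) ≠ 0)
    (h02 : hermForm 4 F 2 (u 0) (u 2) = 0) (h03 : hermForm 4 F 2 (u 0) (u 3) = 0)
    (h12 : hermForm 4 F 2 (u 1) (u 2) = 0) (h13 : hermForm 4 F 2 (u 1) (u 3) = 0) (x : Fin 4 → F) :
    act m x = c • x := by
  have h20 := (hermForm_eq_zero_comm hF).1 h02
  have h30 := (hermForm_eq_zero_comm hF).1 h03
  have h21 := (hermForm_eq_zero_comm hF).1 h12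
  have h31 := (hermForm_eq_zero_comm hF).1 h13
  have h10 : hermForm 4 F 2 (u 1) (u 0) ≠ 0 := fun h => h01 ((hermForm_eq_zero_comm hF).1 h)
  have h32 : hermForm 4 F 2 (u 3) (u 2) ≠ 0 := fun h => h23 ((hermForm_eq_zero_comm hF).1 h)
  have hli : LinearIndependent F u := by
    rw [Fintype.linearIndependent_iff]
    intro g hg
    rw [Fin.sum_univ_four] at hg
    have key : ∀ w : Fin 4 → F, g 0 * hermForm 4 F 2 (u 0) w + g 1 * hermForm 4 F 2 (u 1) w +
        g 2 * hermForm 4 F 2 (u 2) w + g 3 * hermForm 4 F 2 (u 3) w = 0 := by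
      intro w
      have h1 := congrArg (fun y => hermForm 4 F 2 y w) hg
      simp only [hermForm_add_left, hermForm_smul_left, hermForm_zero_left] at h1
      exact h1
    have k0 := key (u 0)
    have k1 := key (u 1)
    have k2 := key (u 2)
    have k3 := key (u 3)
    rw [h0 0, h20, h30] at k0
    rw [h0 1, h21, h31] at k1
    rw [h0 2, h02, h12] at k2
    rw [h0 3, h03, h13] at k3
    simp only [mul_zero, add_zero, zero_add] at k0 k1 k2 k3
    intro i
    fin_cases i
    · exact (mul_eq_zero.1 k1).resolve_right h01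
    · exact (mul_eq_zero.1 k0).resolve_right h10
    · exact (mul_eq_zero.1 k3).resolve_right h23
    · exact (mul_eq_zero.1 k2).resolve_right h32
  have hsp : Submodule.span F (Set.range u) = ⊤ := hli.span_eq_top_of_card_eq_finrank' (by simp)
  have hx : x ∈ Submodule.span F (Set.range u) := by rw [hsp]; trivial
  induction hx using Submodule.span_induction with
  | mem x hx => obtain ⟨i, rfl⟩ := hx; exact hu i
  | zero => rw [smul_zero]; exact act_zero m
  | add x y _ _ hx hy => rw [act_add, hx, hy, smul_add]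
  | smul a x _ hx => rw [act_smul, hx, smul_comm]

end lin

variable {G : Type*} [Group G] [Finite G] {D : Set G} {d₁ d₂ : G} {F : Type} [Field F] [Fintype F]

theorem lemX (P : FiF6.PD D d₁ d₂ F) {σ : MulAut G} {x : ℕ → G} {a b : G} (S : SC D σ d₁ d₂ x a b) {k : G}
    (hk : k ∈ Subgroup.centralizer ({d₁, d₂} : Set G))
    (h : ∀ y ∈ perp D d₁ ∩ perp D d₂, Sim D d₁ d₂ (k * y * k⁻¹) (σ y)) : False := by
  have hF := P.Δ.hF
  obtain ⟨g, γ, -, -, -, -, -, h1⟩ := P.lift' ⟨k, hk⟩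
  set m := P.φ ⟨k, hk⟩ with hm
  -- coordinates of the fixed members
  have hq : ∀ i : Fin 5, ∃ (α : F) (u : Fin 4 → F), u ≠ 0 ∧ hermForm 4 F 2 u u = 0 ∧ x i = P.q α u :=
    fun i => P.exists_q (S.hx i i.2)
  choose α u hu0 hu hxq using hq
  have hc : ∀ i : Fin 5, ∃ c : F, c ≠ 0 ∧ act m (u i) = c • u i := by
    intro i
    have h2 := h (x i) (S.hx i i.2)
    rw [S.fx i i.2, hxq i] at h2
    have h3 := h1 (α i) (u i) (hu0 i) (hu i)
    simp only at h3
    rw [h3] at h2
    exact (P.sim_q (hu0 i) (hu i) (act_ne_zero (hu0 i)) (by rw [act_form]; exact hu i)).1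
      (FiF6.Sim.symm h2)
  choose c hc0 hc using hc
  have hherm : ∀ i j : Fin 5, Commute (x i) (x j) ↔ hermForm 4 F 2 (u i) (u j) = 0 := by
    intro i j
    rw [hxq i, hxq j]
    exact P.commute_q (hu0 i) (hu i) (hu0 j) (hu j)
  have n01 : hermForm 4 F 2 (u 0) (u 1) ≠ 0 := fun h2 => S.n01 ((hherm 0 1).2 h2)
  have n12 : hermForm 4 F 2 (u 1) (u 2) ≠ 0 := fun h2 => S.n12 ((hherm 1 2).2 h2)
  have n23 : hermForm 4 F 2 (u 2) (u 3) ≠ 0 := fun h2 => S.n23 ((hherm 2 3).2 h2)
  have n34 : hermForm 4 F 2 (u 3) (u 4) ≠ 0 := fun h2 => S.n34 ((hherm 3 4).2 h2)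
  have e01 := scal_eq hF m (hc0 1) (hc 0) (hc 1) n01
  have e12 := scal_eq hF m (hc0 2) (hc 1) (hc 2) n12
  have e23 := scal_eq hF m (hc0 3) (hc 2) (hc 3) n23
  have e34 := scal_eq hF m (hc0 4) (hc 3) (hc 4) n34
  have hall : ∀ y, act m y = c 0 • y := by
    refine scalar_of hF m (u := ![u 0, u 1, u 3, u 4]) ?_ ?_ n01 n34 ((hherm 0 3).1 S.c03) ((hherm 0 4).1 S.c04)
      ((hherm 1 3).1 S.c13) ((hherm 1 4).1 S.c14)
    · intro i
      fin_cases i
      · exact hc 0
      · show act m (u 1) = c 0 • u 1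
        rw [e01]; exact hc 1
      · show act m (u 3) = c 0 • u 3
        rw [e01, e12, e23]; exact hc 3
      · show act m (u 4) = c 0 • u 4
        rw [e01, e12, e23, e34]; exact hc 4
    · intro i
      fin_cases i
      · exact hu 0
      · exact hu 1
      · exact hu 3
      · exact hu 4
  have hm1 : m = 1 := P.eq_one_of_fix fun y _ _ => ⟨c 0, hc0 0, hall y⟩
  have hkE : k ∈ P.E := P.mem_E.2 ⟨hk, hm1⟩
  -- contradiction with the pair `a`, `b`
  have h2 := (P.mem_E_iff.1 hkE).2 a S.ha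
  have h3 := h a S.ha
  have h4 := (h2.trans h3) b S.hb
  exact S.hab (h4.2 S.hab')

end Cfsg.Agent.A22
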