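import Cfsg.Agent.O8.Row
import Cfsg.Agent.FiF4.M22b

/-!
The diagram automorphism of the presented `Fi₂₂` (owner: helper50).
-/

set_option autoImplicit false
set_option maxRecDepth 1000000

universe u

namespace Cfsg.Agent.A22

open Cfsg Cfsg.Agent.CosetEnum Cfsg.Agent.CosetEnum.Fi22 Cfsg.Agent.O8 Cfsg.Agent.Fi22 Cfsg.Agent.ThreeTransp

/-- the letter permutation for the family `gS` -/
def pS : ℕ → ℕ
  | 1 => 3 | 3 => 1 | 5 => 6 | 6 => 5 | 8 => 9 | 9 => 8
  | x => x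

/-- the letter permutation for the family `hF` -/
def pH : ℕ → ℕ
  | 1 => 6 | 6 => 1 | 10 => 5 | 5 => 10 | 2 => 4 | 4 => 2
  | x => x

/-- from `gS` letters to `hF` letters -/
def gh : ℕ → ℕ
  | 1 => 2 | 2 => 3 | 3 => 4 | 4 => 7 | 5 => 5 | 6 => 10 | 7 => 8 | 8 => 6 | 9 => 1
  | _ => 0

theorem gS_gh (x : ℕ) (hx : isLet 9 x = true) : gS x = hF (gh x) := by
  rw [isLet_iff] at hx
  have : x = 1 ∨ x = 2 ∨ x = 3 ∨ x = 4 ∨ x = 5 ∨ x = 6 ∨ x = 7 ∨ x = 8 ∨ x = 9 := by omega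
  rcases this with rfl | rfl | rfl | rfl | rfl | rfl | rfl | rfl | rfl <;> rfl

theorem RL_lets : ∀ p ∈ Fi22T9.RL, ∀ x ∈ p.1, isLet 9 x = true := by decide +kernel

theorem pS_let : ∀ x, isLet 9 x = true → isLet 9 (pS x) = true := by
  intro x hx
  rw [isLet_iff] at hx
  have : x = 1 ∨ x = 2 ∨ x = 3 ∨ x = 4 ∨ x = 5 ∨ x = 6 ∨ x = 7 ∨ x = 8 ∨ x = 9 := by omega
  rcases this with rfl | rfl | rfl | rfl | rfl | rfl | rfl | rfl | rfl <;> rfl

theorem pS_not {x : ℕ} (hx : isLet 9 x = false) : pS x = x := by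
  have h1 : ¬ (1 ≤ x ∧ x ≤ 9) := by
    intro h
    rw [← isLet_iff] at h
    rw [h] at hx
    exact absurd hx (by decide)
  unfold pS
  split <;> omega

/-- the images of the relators, as words in the letters of `hF` -/
def RLw : List (List ℕ) := Fi22T9.RL.map fun p => (List.replicate p.2 (p.1.map fun x => gh (pS x))).flatten

theorem RLw_ok : ∀ u ∈ RLw, OKw u := by decide +kernel

theorem RLw_chk : RLw.all eqB = true := by decide +kernel

theorem wd_replicate (u : List ℕ) (k : ℕ) : wd (List.replicate k u).flatten = wd u ^ k := by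
  induction k with
  | zero => rw [List.replicate_zero, List.flatten_nil, wd_nil, pow_zero]
  | succ k ih => rw [List.replicate_succ, List.flatten_cons, wd_append, ih, pow_succ']

theorem good_sig : Good (fun x => gS (pS x)) 9 [] Fi22T9.RL where
  inv := fun x => U22.good.inv (pS x)
  one := by
    intro x hx
    show gS (pS x) = 1
    rw [pS_not hx]
    exact U22.good.one x hx
  rel := by
    intro p hp
    have h1 : (p.1.map fun x => gS (pS x)) = (p.1.map fun x => gh (pS x)).map hF := by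
      rw [List.map_map]
      apply List.map_congr_left
      intro x hx
      exact gS_gh _ (pS_let x (RL_lets p hp x hx))
    rw [h1]
    show wd (p.1.map fun x => gh (pS x)) ^ p.2 = 1
    rw [← wd_replicate]
    have h2 : (List.replicate p.2 (p.1.map fun x => gh (pS x))).flatten ∈ RLw := List.mem_map.2 ⟨p, hp, rfl⟩
    exact wd_eq_one (RLw_ok _ h2) (List.all_eq_true.1 RLw_chk _ h2)

theorem pS_pS (x : ℕ) : pS (pS x) = x := by
  by_cases hx : isLet 9 x = true
  · rw [isLet_iff] at hx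
    have : x = 1 ∨ x = 2 ∨ x = 3 ∨ x = 4 ∨ x = 5 ∨ x = 6 ∨ x = 7 ∨ x = 8 ∨ x = 9 := by omega
    rcases this with rfl | rfl | rfl | rfl | rfl | rfl | rfl | rfl | rfl <;> rfl
  · have h1 : isLet 9 x = false := by simpa using hx
    rw [pS_not h1, pS_not h1]

theorem exists_sig : ∃ σ : MulAut GF, (∀ x, σ (gS x) = gS (pS x)) ∧ ∀ y, σ (σ y) = y := by
  obtain ⟨φ, hφ⟩ := U22.univ GF (fun x => gS (pS x)) good_sig
  have h1 : ∀ y, φ (φ y) = y := by
    intro y
    have h2 : φ.comp φ = MonoidHom.id _ := by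
      apply MonoidHom.eq_of_eqOn_dense (s := gS '' {x | isLet 9 x = true})
      · exact U22.top
      · rintro _ ⟨x, hx, rfl⟩
        show φ (φ (gS x)) = gS x
        rw [hφ, hφ, pS_pS]
    exact DFunLike.congr_fun h2 y
  exact ⟨MulEquiv.ofBijective φ ⟨fun x y hxy => by rw [← h1 x, ← h1 y, hxy], fun y => ⟨φ y, h1 y⟩⟩, hφ, h1⟩

/-- letters on which the automorphism acts by a permutation -/
def L9 (x : ℕ) : Prop := x = 1 ∨ x = 2 ∨ x = 3 ∨ x = 4 ∨ x = 5 ∨ x = 6 ∨ x = 7 ∨ x = 8 ∨ x = 10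

theorem sig_hF {σ : MulAut GF} (hσ : ∀ x, σ (gS x) = gS (pS x)) {x : ℕ} (hx : L9 x) : σ (hF x) = hF (pH x) := by
  rcases hx with rfl | rfl | rfl | rfl | rfl | rfl | rfl | rfl | rfl
  · exact hσ 9
  · exact hσ 1
  · exact hσ 2
  · exact hσ 3
  · exact hσ 5
  · exact hσ 8
  · exact hσ 4
  · exact hσ 7
  · exact hσ 6

theorem sig_wd {σ : MulAut GF} (hσ : ∀ x, σ (gS x) = gS (pS x)) {u : List ℕ} (hu : ∀ x ∈ u, L9 x) :
    σ (wd u) = wd (u.map pH) := by
  induction u with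
  | nil => exact map_one σ
  | cons x u ih =>
    rw [wd_cons, map_mul, sig_hF hσ (hu x (by simp)), ih (fun y hy => hu y (by simp [hy])), List.map_cons, wd_cons]

instance (x : ℕ) : Decidable (L9 x) := by unfold L9; infer_instance

/-- the configuration of fixed members -/
structure SC {G : Type*} [Group G] (D : Set G) (σ : MulAut G) (d₁ d₂ : G) (x : ℕ → G) (a b : G) : Prop where
  hσ : ∀ d ∈ D, σ d ∈ D
  inv : ∀ y, σ (σ y) = y
  h1 : d₁ ∈ D
  h2 : d₂ ∈ perp D d₁
  f1 : σ d₁ = d₁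
  f2 : σ d₂ = d₂
  hx : ∀ i < 5, x i ∈ perp D d₁ ∩ perp D d₂
  fx : ∀ i < 5, σ (x i) = x i
  n01 : ¬ Commute (x 0) (x 1)
  n12 : ¬ Commute (x 1) (x 2)
  n23 : ¬ Commute (x 2) (x 3)
  n34 : ¬ Commute (x 3) (x 4)
  c03 : Commute (x 0) (x 3)
  c04 : Commute (x 0) (x 4)
  c13 : Commute (x 1) (x 3)
  c14 : Commute (x 1) (x 4)
  ha : a ∈ perp D d₁ ∩ perp D d₂
  hb : b ∈ perp D d₁ ∩ perp D d₂
  hab : ¬ Commute b a
  hab' : Commute b (σ a)

/-- the conjugating words and the letters -/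
def xu : ℕ → ℕ × List ℕ
  | 0 => (2, [3, 4, 5, 10])
  | 1 => (2, [3, 4, 7, 3, 8, 7])
  | 2 => (1, [10, 2, 3, 4, 5, 6])
  | 3 => (2, [3, 4, 5, 7, 3, 8, 7, 10])
  | _ => (2, [3, 4])

def xpt : ℕ → ℕ
  | 0 => 14 | 1 => 2877 | 2 => 17 | 3 => 121 | _ => 2820

def xW (i : ℕ) : List ℕ := (xu i).2.reverse ++ [(xu i).1] ++ (xu i).2

theorem xW_ok : ∀ i < 5, (∀ x ∈ (xu i).2, L9 x) ∧ L9 (xu i).1 ∧ OKw (xu i).2 ∧ (xu i).1 ∈ Fi22TH.lets := by decide

theorem xW_L9 : ∀ i < 5, (∀ x ∈ xW i, L9 x) ∧ OKw (xW i) ∧ OKw ((xW i).map pH) := by decide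

theorem xW_fix : ∀ i < 5, eqB ((xW i).map pH ++ (xW i).reverse) = true := by decide +kernel

theorem xpt_chk : ∀ i < 5, actW Fi22TH.P (xu i).2 (lpt (xu i).1) = xpt i := by decide +kernel

theorem isPt_xW {i : ℕ} (hi : i < 5) : IsPt (wd (xW i)) (xpt i) := by
  obtain ⟨h1, h2, h3, h4⟩ := xW_ok i hi
  have h5 := (isPt_lpt _ h4).conj h3
  have h6 := xpt_chk i hi
  rw [h6] at h5
  have h7 : wd (xW i) = (wd (xu i).2)⁻¹ * hF (xu i).1 * wd (xu i).2 := by
    unfold xW
    rw [wd_append, wd_append, wd_reverse, wd_single]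
  rw [h7]
  exact h5

theorem comm_pt {d : GF} {p : ℕ} (h : IsPt d p) {u : List ℕ} (hu : OKw u) (h2 : Nat.beq (actW Fi22TH.P u p) p = true) :
    Commute d (wd u) := (h.commute_iff hu).2 (by simpa using h2)

theorem nc_pt {d : GF} {p : ℕ} (h : IsPt d p) {u : List ℕ} (hu : OKw u) (h2 : Nat.beq (actW Fi22TH.P u p) p = false) :
    ¬ Commute d (wd u) := by
  intro h3
  have h4 := (h.commute_iff hu).1 h3
  rw [h4] at h2
  simp at h2

/-- the check of commuting -/
noncomputable def cB (i : ℕ) (u : List ℕ) (v : Bool) : Bool := Nat.beq (actW Fi22TH.P u (xpt i)) (xpt i) == v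

theorem cB_chk : (cB 0 (xW 1) false && cB 1 (xW 2) false && cB 2 (xW 3) false && cB 3 (xW 4) false &&
    cB 0 (xW 3) true && cB 0 (xW 4) true && cB 1 (xW 3) true && cB 1 (xW 4) true) = true := by decide +kernel

theorem cB_chk2 : ∀ i < 5, cB i [3] true = true ∧ cB i [8] true = true := by decide +kernel

theorem comm_of_cB {i j : ℕ} (hi : i < 5) (hj : j < 5) (h : cB i (xW j) true = true) : Commute (wd (xW i)) (wd (xW j)) :=
  comm_pt (isPt_xW hi) (xW_L9 j hj).2.1 (by simpa [cB] using h)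

theorem nc_of_cB {i j : ℕ} (hi : i < 5) (hj : j < 5) (h : cB i (xW j) false = true) :
    ¬ Commute (wd (xW i)) (wd (xW j)) :=
  nc_pt (isPt_xW hi) (xW_L9 j hj).2.1 (by simpa [cB] using h)

theorem mem_D {d : GF} {p : ℕ} (h : IsPt d p) : d ∈ conjugatesOf (hF 1) := by
  obtain ⟨w, -, rfl, -⟩ := h
  refine isConj_iff.2 ⟨(wd w)⁻¹, ?_⟩
  group

theorem pt_ne {d d' : GF} {p q : ℕ} (h : IsPt d p) (h' : IsPt d' q) (hpq : p ≠ q) : d ≠ d' := by
  rintro rfl
  exact hpq (h.point h')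

theorem comm_let {x y : ℕ} (hx : x ∈ Fi22TH.lets) (hy : y ∈ Fi22TH.lets)
    (h : Nat.beq (actW Fi22TH.P [y] (lpt x)) (lpt x) = true) : Commute (hF x) (hF y) := by
  have h1 := comm_pt (isPt_lpt x hx) (u := [y]) (by intro z hz; rw [List.mem_singleton] at hz; subst hz; exact hy) h
  rwa [wd_single] at h1

theorem nc_let {x y : ℕ} (hx : x ∈ Fi22TH.lets) (hy : y ∈ Fi22TH.lets)
    (h : Nat.beq (actW Fi22TH.P [y] (lpt x)) (lpt x) = false) : ¬ Commute (hF x) (hF y) := by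
  have h1 := nc_pt (isPt_lpt x hx) (u := [y]) (by intro z hz; rw [List.mem_singleton] at hz; subst hz; exact hy) h
  rwa [wd_single] at h1

theorem let_perp {x y : ℕ} (hx : x ∈ Fi22TH.lets) (hy : y ∈ Fi22TH.lets)
    (h : Nat.beq (actW Fi22TH.P [y] (lpt x)) (lpt x) = true) (hne : lpt y ≠ lpt x) :
    hF y ∈ perp (conjugatesOf (hF 1)) (hF x) :=
  ⟨mem_D (isPt_lpt y hy), pt_ne (isPt_lpt y hy) (isPt_lpt x hx) hne, comm_let hx hy h⟩

theorem x_perp {i y : ℕ} (hi : i < 5) (hy : y ∈ Fi22TH.lets) (h : cB i [y] true = true) (hne : xpt i ≠ lpt y) :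
    wd (xW i) ∈ perp (conjugatesOf (hF 1)) (hF y) := by
  refine ⟨mem_D (isPt_xW hi), pt_ne (isPt_xW hi) (isPt_lpt y hy) hne, ?_⟩
  have h1 := comm_pt (isPt_xW hi) (u := [y]) (by intro z hz; rw [List.mem_singleton] at hz; subst hz; exact hy)
    (by simpa [cB] using h)
  rw [wd_single] at h1
  exact h1.symm

theorem exists_sc : ∃ σ : MulAut GF, SC (conjugatesOf (hF 1)) σ (hF 3) (hF 8) (fun i => wd (xW i)) (hF 1) (hF 10) := by
  obtain ⟨σ, hσ, hinv⟩ := exists_sig
  have hfix : ∀ i < 5, σ (wd (xW i)) = wd (xW i) := by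
    intro i hi
    obtain ⟨h1, h2, h3⟩ := xW_L9 i hi
    rw [sig_wd hσ h1]
    have h4 := wd_eq_one (h3.append h2.reverse) (xW_fix i hi)
    rw [wd_append, wd_reverse, mul_inv_eq_one] at h4
    exact h4
  have hk := cB_chk
  simp only [Bool.and_eq_true] at hk
  obtain ⟨⟨⟨⟨⟨⟨⟨k1, k2⟩, k3⟩, k4⟩, k5⟩, k6⟩, k7⟩, k8⟩ := hk
  refine ⟨σ, ?_⟩
  constructor
  · intro d hd
    obtain ⟨y, rfl⟩ := isConj_iff.1 (show IsConj (hF 1) d from hd)
    rw [map_mul, map_mul, map_inv, sig_hF hσ (Or.inl rfl)]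
    have h1 : IsConj (hF 1) (hF 6) := mem_D (isPt_lpt 6 (by decide))
    exact h1.trans (isConj_iff.2 ⟨σ y, rfl⟩)
  · exact hinv
  · exact mem_D (isPt_lpt 3 (by decide))
  · exact let_perp (by decide) (by decide) (by decide +kernel) (by decide)
  · exact sig_hF hσ (by decide)
  · exact sig_hF hσ (by decide)
  · intro i hi
    have h1 : ∀ i < 5, xpt i ≠ lpt 3 ∧ xpt i ≠ lpt 8 := by decide
    exact ⟨x_perp hi (by decide) (cB_chk2 i hi).1 (h1 i hi).1, x_perp hi (by decide) (cB_chk2 i hi).2 (h1 i hi).2⟩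
  · exact hfix
  · exact nc_of_cB (by decide) (by decide) k1
  · exact nc_of_cB (by decide) (by decide) k2
  · exact nc_of_cB (by decide) (by decide) k3
  · exact nc_of_cB (by decide) (by decide) k4
  · exact comm_of_cB (by decide) (by decide) k5
  · exact comm_of_cB (by decide) (by decide) k6
  · exact comm_of_cB (by decide) (by decide) k7
  · exact comm_of_cB (by decide) (by decide) k8
  · exact ⟨let_perp (by decide) (by decide) (by decide +kernel) (by decide),
      let_perp (by decide) (by decide) (by decide +kernel) (by decide)⟩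
  · exact ⟨let_perp (by decide) (by decide) (by decide +kernel) (by decide),
      let_perp (by decide) (by decide) (by decide +kernel) (by decide)⟩
  · exact nc_let (by decide) (by decide) (by decide +kernel)
  · rw [sig_hF hσ (Or.inl rfl)]
    exact comm_let (by decide) (by decide) (by decide +kernel)

section

variable {G : Type u} [Group G] [Finite G] {D : Set G}

theorem perp_map {G' : Type*} [Group G'] {D' : Set G'} (e : G' ≃* G) (hD : ∀ d, d ∈ D' ↔ e d ∈ D) {x y : G'} :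
    y ∈ perp D' x ↔ e y ∈ perp D (e x) := by
  constructor
  · rintro ⟨h1, h2, h3⟩
    exact ⟨(hD y).1 h1, fun h => h2 (e.injective h), h3.map e.toMonoidHom⟩
  · rintro ⟨h1, h2, h3⟩
    refine ⟨(hD y).2 h1, fun h => h2 (by rw [h]), ?_⟩
    have := h3.map e.symm.toMonoidHom
    simpa using this

theorem comm_map {G' : Type*} [Group G'] (e : G' ≃* G) {x y : G'} : Commute x y ↔ Commute (e x) (e y) := by
  constructor
  · intro h
    exact h.map e.toMonoidHom
  · intro h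
    have := h.map e.symm.toMonoidHom
    simpa using this

/-- transport of the configuration -/
theorem SC.map {G' : Type*} [Group G'] {D' : Set G'} (e : G' ≃* G) (hD : ∀ d, d ∈ D' ↔ e d ∈ D) {σ : MulAut G'}
    {d₁ d₂ a b : G'} {x : ℕ → G'} (h : SC D' σ d₁ d₂ x a b) :
    SC D (e.symm.trans (σ.trans e)) (e d₁) (e d₂) (fun i => e (x i)) (e a) (e b) := by
  have hs : ∀ y : G', (e.symm.trans (σ.trans e) : MulAut G) (e y) = e (σ y) := by
    intro y
    show e (σ (e.symm (e y))) = e (σ y)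
    rw [e.symm_apply_apply]
  constructor
  · intro d hd
    obtain ⟨d, rfl⟩ := e.surjective d
    rw [hs, ← hD]
    exact h.hσ d ((hD d).2 hd)
  · intro y
    obtain ⟨y, rfl⟩ := e.surjective y
    rw [hs, hs, h.inv]
  · exact (hD _).1 h.h1
  · exact (perp_map e hD).1 h.h2
  · rw [hs, h.f1]
  · rw [hs, h.f2]
  · intro i hi
    exact ⟨(perp_map e hD).1 (h.hx i hi).1, (perp_map e hD).1 (h.hx i hi).2⟩
  · intro i hi
    rw [hs, h.fx i hi]
  · rw [← comm_map]; exact h.n01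
  · rw [← comm_map]; exact h.n12
  · rw [← comm_map]; exact h.n23
  · rw [← comm_map]; exact h.n34
  · rw [← comm_map]; exact h.c03
  · rw [← comm_map]; exact h.c04
  · rw [← comm_map]; exact h.c13
  · rw [← comm_map]; exact h.c14
  · exact ⟨(perp_map e hD).1 h.ha.1, (perp_map e hD).1 h.ha.2⟩
  · exact ⟨(perp_map e hD).1 h.hb.1, (perp_map e hD).1 h.hb.2⟩
  · rw [← comm_map]; exact h.hab
  · rw [hs, ← comm_map]; exact h.hab'

/-- the configuration in a group of type M(22) -/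
theorem exists_sc' (H : H22 D) {d₁ d₂ : G} (h1 : d₁ ∈ D) (h2 : d₂ ∈ perp D d₁) :
    ∃ σ x a b, SC D σ d₁ d₂ x a b := by
  obtain ⟨e, -, hD⟩ := H.exists_iso
  obtain ⟨σ, h⟩ := exists_sc
  have hm : ∀ d : GF, d ∈ conjugatesOf (hF 1) ↔ e.symm d ∈ D := by
    intro d
    rw [hF_one, ← hD]
    constructor
    · rintro ⟨d', h1, rfl⟩
      rwa [e.symm_apply_apply]
    · intro h1
      exact ⟨_, h1, e.apply_symm_apply d⟩
  have h3 := h.map e.symm hm
  obtain ⟨c, c1, c2⟩ := FiF4.H22.exists_conj_pair' H h3.h1 h3.h2 h1 h2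
  have h4 := h3.map (MulAut.conj c) (D := D) (fun d => by
    constructor
    · intro hd
      exact conj_mem H.cls hd c
    · intro hd
      have h5 := conj_mem H.cls hd c⁻¹
      have h6 : c⁻¹ * (MulAut.conj c d) * c⁻¹⁻¹ = d := by
        rw [MulAut.conj_apply]; group
      rwa [h6] at h5)
  rw [MulAut.conj_apply, c1, MulAut.conj_apply, c2] at h4
  exact ⟨_, _, _, _, h4⟩

end

end Cfsg.Agent.A22
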